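import Cfsg.Agent.H13.G24Mult.Slp

/-! The checks of the certificate at 2. -/

set_option autoImplicit false
set_option maxRecDepth 100000

namespace Cfsg.Agent.H13.G24Mult

open Cfsg.Agent.H16 Cfsg.Agent.H36 Cfsg.Agent.H13.SylMult

theorem pc2_ok : pc2.ok cert2 = true := by decide +kernel

theorem rows2_part0 : (((List.zip cert2.eqns cert2.rows).drop 0).take 16).all (fun qr => eqnOk pc2 cert2 qr.1 qr.2) = true := by decide +kernel

theorem rows2_part1 : (((List.zip cert2.eqns cert2.rows).drop 16).take 16).all (fun qr => eqnOk pc2 cert2 qr.1 qr.2) = true := by decide +kernel

theorem rows2_part2 : (((List.zip cert2.eqns cert2.rows).drop 32).take 16).all (fun qr => eqnOk pc2 cert2 qr.1 qr.2) = true := by decide +kernel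

theorem rows2_part3 : (((List.zip cert2.eqns cert2.rows).drop 48).take 16).all (fun qr => eqnOk pc2 cert2 qr.1 qr.2) = true := by decide +kernel

theorem rows2_part4 : (((List.zip cert2.eqns cert2.rows).drop 64).take 16).all (fun qr => eqnOk pc2 cert2 qr.1 qr.2) = true := by decide +kernel

theorem rows2_part5 : (((List.zip cert2.eqns cert2.rows).drop 80).take 16).all (fun qr => eqnOk pc2 cert2 qr.1 qr.2) = true := by decide +kernel

theorem rows2_part6 : (((List.zip cert2.eqns cert2.rows).drop 96).take 16).all (fun qr => eqnOk pc2 cert2 qr.1 qr.2) = true := by decide +kernel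

theorem rows2_part7 : (((List.zip cert2.eqns cert2.rows).drop 112).take 16).all (fun qr => eqnOk pc2 cert2 qr.1 qr.2) = true := by decide +kernel

theorem rows2_all : (List.zip cert2.eqns cert2.rows).all (fun qr => eqnOk pc2 cert2 qr.1 qr.2) = true :=
  all_of_chunks (c := 16) (m := 8) (by norm_num) (by decide +kernel) fun i hi => by
    interval_cases i
    · exact rows2_part0
    · exact rows2_part1
    · exact rows2_part2
    · exact rows2_part3
    · exact rows2_part4
    · exact rows2_part5
    · exact rows2_part6
    · exact rows2_part7

theorem combos2_part0 : (((List.zip cert2.live cert2.combos).drop 0).take 16).all (cert2.comboTest pc2) = true := by decide +kernel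

theorem combos2_part1 : (((List.zip cert2.live cert2.combos).drop 16).take 16).all (cert2.comboTest pc2) = true := by decide +kernel

theorem combos2_part2 : (((List.zip cert2.live cert2.combos).drop 32).take 16).all (cert2.comboTest pc2) = true := by decide +kernel

theorem combos2_part3 : (((List.zip cert2.live cert2.combos).drop 48).take 16).all (cert2.comboTest pc2) = true := by decide +kernel

theorem combos2_part4 : (((List.zip cert2.live cert2.combos).drop 64).take 16).all (cert2.comboTest pc2) = true := by decide +kernel

theorem combos2_part5 : (((List.zip cert2.live cert2.combos).drop 80).take 16).all (cert2.comboTest pc2) = true := by decide +kernel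

theorem combos2_part6 : (((List.zip cert2.live cert2.combos).drop 96).take 16).all (cert2.comboTest pc2) = true := by decide +kernel

theorem combos2_part7 : (((List.zip cert2.live cert2.combos).drop 112).take 16).all (cert2.comboTest pc2) = true := by decide +kernel

theorem combos2_all : (List.zip cert2.live cert2.combos).all (cert2.comboTest pc2) = true :=
  all_of_chunks (c := 16) (m := 8) (by norm_num) (by decide +kernel) fun i hi => by
    interval_cases i
    · exact combos2_part0
    · exact combos2_part1
    · exact combos2_part2
    · exact combos2_part3
    · exact combos2_part4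
    · exact combos2_part5
    · exact combos2_part6
    · exact combos2_part7

theorem rows2_ok : cert2.rowsOk pc2 = true := Cert.rowsOk_of_parts (by decide +kernel) rows2_all

theorem combos2_ok : cert2.combosOk pc2 = true :=
  Cert.combosOk_of_parts (by decide +kernel) combos2_all (by decide +kernel)

theorem rels2_ok : perm2.relsOk pc2 = true := by decide +kernel

theorem sep2_ok : perm2.sepOk pc2 = true := by decide +kernel

theorem conj2_ok : cert2.eqns.all perm2.conjOk = true := by decide +kernel

theorem perm2_ok : perm2.ok pc2 cert2 = true :=
  PermData.ok_of_parts rels2_ok sep2_ok conj2_ok (by decide +kernel) slp_all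

end Cfsg.Agent.H13.G24Mult
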