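import Cfsg.Agent.H13.G24Mult.WitData
import Cfsg.Agent.H13.SuzMult.Cover
import Cfsg.Agent.H16.G24Iso

/-!
The double cover of the group G2(4): the derived group of the group generated by the lifts of the first
six generators of the Suzuki group.
-/

set_option autoImplicit false
set_option maxRecDepth 100000

namespace Cfsg.Agent.H13.G24Mult

open Cfsg Cfsg.Agent.H16 Cfsg.Agent.H13.SuzMult
open scoped commutatorElement

/-- A program entry. -/
def went (i : ℕ) : ℕ := wtab.getD i 0

/-- The check of an entry. -/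
noncomputable def wentOk (i : ℕ) : Bool :=
  cond (Nat.blt i 6) (Nat.beq (went i) (gcode i))
    ((Nat.blt (wedges.getD i (0, 0)).1 i && Nat.blt (wedges.getD i (0, 0)).2 i) &&
      mulOk (went (wedges.getD i (0, 0)).1) (went (wedges.getD i (0, 0)).2) (went i))

theorem wtab_ok : below wentOk wtab.length = true := by decide +kernel

theorem wit_ok : wit.u < wtab.length ∧ wit.v < wtab.length ∧
    mulOk (went wit.u) (went wit.v) wit.uv = true ∧ mulOk (went wit.v) (went wit.u) wit.vu = true ∧
      smulOk wit.uv wit.vu 6 = true := by decide +kernel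

/-- The lifts of the six generators. -/
def six : Subgroup GL12 := Subgroup.closure {u | ∃ i : Fin 7, i.val < 6 ∧ SuzMult.lift i = u}

theorem went_mem : ∀ i, i < wtab.length → ∃ u ∈ six, (u : M12) = toMat (went i) := by
  intro i
  induction i using Nat.strong_induction_on with
  | _ i ih =>
    intro hi
    have h := below_spec wtab_ok i hi
    by_cases h6 : i < 6
    · have hb : Nat.blt i 6 = true := (Nat.blt_eq ▸ h6)
      simp only [wentOk, hb, cond_true] at h
      refine ⟨SuzMult.lift ⟨i, h6.trans (by norm_num)⟩, Subgroup.subset_closure ⟨_, h6, rfl⟩, ?_⟩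
      exact (congrArg toMat (Nat.eq_of_beq_eq_true h)).symm
    · have hb : Nat.blt i 6 = false := Bool.eq_false_iff.2 fun hh => h6 (Nat.blt_eq ▸ hh)
      simp only [wentOk, hb, cond_false, Bool.and_eq_true, Nat.blt_eq] at h
      obtain ⟨u, hu, eu⟩ := ih _ h.1.1 (h.1.1.trans hi)
      obtain ⟨v, hv, ev⟩ := ih _ h.1.2 (h.1.2.trans hi)
      exact ⟨u * v, mul_mem hu hv, by rw [Units.val_mul, eu, ev]; exact mulOk_spec h.2⟩

/-- The derived group. -/
def dgrp : Subgroup GL12 := ⁅six, six⁆

theorem neg_one_mem : ∃ c : (ZMod 7)ˣ, c ≠ 1 ∧ scalHom c ∈ dgrp := by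
  obtain ⟨hu, hv, h1, h2, h3⟩ := wit_ok
  obtain ⟨x, hx, ex⟩ := went_mem _ hu
  obtain ⟨y, hy, ey⟩ := went_mem _ hv
  refine ⟨-1, by decide, ?_⟩
  have e : x * y = scalHom (-1) * (y * x) := by
    refine Units.ext ?_
    rw [Units.val_mul, Units.val_mul, Units.val_mul, ex, ey, mulOk_spec h1, mulOk_spec h2, smulOk_spec h3]
    rfl
  have e' : scalHom (-1) = ⁅x, y⁆ := by
    rw [commutatorElement_def, e]; group
  rw [e']
  exact Subgroup.commutator_mem_commutator hx hy

theorem subHom_injective : Function.Injective G24Iso.subHom := by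
  have := G24Order.isSimple
  rcases IsSimpleGroup.eq_bot_or_eq_top_of_normal G24Iso.subHom.ker inferInstance with h | h
  · exact (MonoidHom.ker_eq_bot_iff _).mp h
  · exfalso
    have hm : (PresentedGroup.of G24U.Gen.a : G24U.Grp) ∈ G24Iso.subHom.ker := by
      rw [h]; exact Subgroup.mem_top _
    rw [MonoidHom.mem_ker, G24Iso.subHom, PresentedGroup.toGroup.of] at hm
    apply pgen_zero_ne
    rw [show (0 : Fin 7) = num Cfsg.Spor.Suz.Gen.a from rfl, ← proj_of]
    have hv : G24Iso.subFun G24U.Gen.a = PresentedGroup.of Cfsg.Spor.Suz.Gen.a := rfl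
    rw [← hv, hm, map_one]

/-- The projective representation. -/
noncomputable def proj24 : G24U.Grp →* GL12 ⧸ Z := proj.comp G24Iso.subHom

theorem proj24_injective : Function.Injective proj24 := proj_injective.comp subHom_injective

theorem proj24_range : six.map (QuotientGroup.mk' Z) = proj24.range := by
  rw [six, MonoidHom.map_closure, MonoidHom.range_eq_map, ← PresentedGroup.closure_range_of,
    MonoidHom.map_closure, ← Set.range_comp]
  congr 1
  have hof : ∀ x : G24U.Gen, proj24 (PresentedGroup.of x) = proj (G24Iso.subFun x) := fun x =>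
    congrArg proj (PresentedGroup.toGroup.of _)
  ext q
  constructor
  · rintro ⟨_, ⟨i, hi, rfl⟩, rfl⟩
    fin_cases i
    · exact ⟨.a, (hof .a).trans (proj_of .a)⟩
    · exact ⟨.b, (hof .b).trans (proj_of .b)⟩
    · exact ⟨.c, (hof .c).trans (proj_of .c)⟩
    · exact ⟨.d, (hof .d).trans (proj_of .d)⟩
    · exact ⟨.e, (hof .e).trans (proj_of .e)⟩
    · exact ⟨.f, (hof .f).trans (proj_of .f)⟩
    · exact absurd hi (by decide)
  · rintro ⟨x, rfl⟩
    cases x
    · exact ⟨_, ⟨0, by decide, rfl⟩, ((hof .a).trans (proj_of .a)).symm⟩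
    · exact ⟨_, ⟨1, by decide, rfl⟩, ((hof .b).trans (proj_of .b)).symm⟩
    · exact ⟨_, ⟨2, by decide, rfl⟩, ((hof .c).trans (proj_of .c)).symm⟩
    · exact ⟨_, ⟨3, by decide, rfl⟩, ((hof .d).trans (proj_of .d)).symm⟩
    · exact ⟨_, ⟨4, by decide, rfl⟩, ((hof .e).trans (proj_of .e)).symm⟩
    · exact ⟨_, ⟨5, by decide, rfl⟩, ((hof .f).trans (proj_of .f)).symm⟩

theorem commutator_grp : commutator G24U.Grp = ⊤ := by
  have := G24Order.isSimple
  rcases IsSimpleGroup.eq_bot_or_eq_top_of_normal (commutator G24U.Grp) inferInstance with h | h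
  · exfalso
    have key : ∀ x y : G24U.Grp, x * y = y * x := fun x y => by
      have : ⁅x, y⁆ ∈ commutator G24U.Grp :=
        Subgroup.commutator_mem_commutator (Subgroup.mem_top x) (Subgroup.mem_top y)
      rw [h, Subgroup.mem_bot, commutatorElement_eq_one_iff_mul_comm] at this
      exact this
    have hp : Nat.Prime (Nat.card G24U.Grp) := by
      letI : CommGroup G24U.Grp := { (inferInstance : Group G24U.Grp) with mul_comm := key }
      exact IsSimpleGroup.prime_card
    rw [G24Order.card_and_faithful.1] at hp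
    revert hp
    norm_num
  · exact h

theorem dgrp_map : dgrp.map (QuotientGroup.mk' Z) = proj24.range := by
  rw [dgrp, Subgroup.map_commutator, proj24_range, MonoidHom.range_eq_map, ← Subgroup.map_commutator]
  exact congrArg _ commutator_grp

theorem six_le : six ≤ dgrp ⊔ Z := by
  have h : six.map (QuotientGroup.mk' Z) ≤ dgrp.map (QuotientGroup.mk' Z) := by
    rw [dgrp_map, proj24_range]
  intro x hx
  obtain ⟨d, hd, e⟩ := h ⟨x, hx, rfl⟩
  rw [show x = d * (d⁻¹ * x) by group]
  exact Subgroup.mul_mem_sup hd (QuotientGroup.eq.1 e)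

theorem dgrp_perfect : ⁅dgrp, dgrp⁆ = dgrp := by
  refine le_antisymm (Subgroup.commutator_le.2 fun x hx y hy => ?_) ?_
  · rw [commutatorElement_def]
    exact mul_mem (mul_mem (mul_mem hx hy) (inv_mem hx)) (inv_mem hy)
  refine Subgroup.commutator_le.2 fun x hx y hy => ?_
  obtain ⟨d, hd, z, ⟨c, rfl⟩, rfl⟩ := Subgroup.mem_sup_of_normal_right.1 (six_le hx)
  obtain ⟨d', hd', z', ⟨c', rfl⟩, rfl⟩ := Subgroup.mem_sup_of_normal_right.1 (six_le hy)
  have hc : ∀ (a : (ZMod 7)ˣ) (u : GL12), Commute (scalHom a) u := fun a u => (scalHom_central a u).symm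
  have h1 : ∀ (a : (ZMod 7)ˣ) (u v : GL12), ⁅u * scalHom a, v⁆ = ⁅u, v⁆ := fun a u v => by
    rw [commutatorElement_def, commutatorElement_def, mul_inv_rev, mul_assoc u (scalHom a) v, (hc a v).eq,
      ← mul_assoc u v]
    group
  have h2 : ∀ (a : (ZMod 7)ˣ) (u v : GL12), ⁅v, u * scalHom a⁆ = ⁅v, u⁆ := fun a u v => by
    rw [← commutatorElement_inv, h1, commutatorElement_inv]
  rw [h1, h2]
  exact Subgroup.commutator_mem_commutator hd hd'

theorem commutator_dgrp : commutator dgrp = ⊤ := by
  apply Subgroup.map_injective dgrp.subtype_injective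
  rw [commutator_def, Subgroup.map_commutator, ← MonoidHom.range_eq_map, dgrp.range_subtype, dgrp_perfect]

/-- The group G2(4) has a stem extension with a nontrivial kernel. -/
theorem exists_stem : ∃ (Γ : Type) (_ : Group Γ) (_ : Finite Γ) (π : Γ →* G24U.Grp),
    Cfsg.IsStemExtension π ∧ π.ker ≠ ⊥ := by
  haveI : Fact (Nat.Prime 7) := ⟨by norm_num⟩
  let q : dgrp →* proj24.range :=
    ((QuotientGroup.mk' Z).comp dgrp.subtype).codRestrict proj24.range fun u => by
      rw [← dgrp_map]; exact ⟨u, u.2, rfl⟩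
  let π : dgrp →* G24U.Grp := (MonoidHom.ofInjective proj24_injective).symm.toMonoidHom.comp q
  have hker : ∀ u : dgrp, u ∈ π.ker ↔ (u : GL12) ∈ Z := by
    intro u
    rw [MonoidHom.mem_ker]
    show (MonoidHom.ofInjective proj24_injective).symm (q u) = 1 ↔ _
    rw [MulEquiv.map_eq_one_iff, Subtype.ext_iff]
    exact QuotientGroup.eq_one_iff _
  refine ⟨dgrp, inferInstance, inferInstance, π, ⟨?_, ?_, ?_⟩, ?_⟩
  · intro s
    obtain ⟨u, hu, e⟩ : proj24 s ∈ dgrp.map (QuotientGroup.mk' Z) := dgrp_map ▸ ⟨s, rfl⟩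
    refine ⟨⟨u, hu⟩, ?_⟩
    show (MonoidHom.ofInjective proj24_injective).symm (q ⟨u, hu⟩) = s
    rw [MulEquiv.symm_apply_eq]
    exact Subtype.ext e
  · intro u hu
    obtain ⟨c, hc⟩ := (hker u).1 hu
    rw [Subgroup.mem_center_iff]
    intro g
    refine Subtype.ext ?_
    show (g : GL12) * u = u * g
    rw [← hc]
    exact scalHom_central c g
  · rw [commutator_dgrp]
    exact le_top
  · obtain ⟨c, hc, hm⟩ := neg_one_mem
    intro hb
    have h1 : (⟨scalHom c, hm⟩ : dgrp) ∈ π.ker := (hker _).2 ⟨c, rfl⟩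
    rw [hb, Subgroup.mem_bot] at h1
    exact hc (scalHom_injective (by rw [map_one]; exact congrArg Subtype.val h1))

end Cfsg.Agent.H13.G24Mult
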