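import Cfsg.Agent.H13.G24Mult.Checks2
import Cfsg.Agent.H13.G24Mult.Checks3
import Cfsg.Agent.H13.G24Mult.Checks5
import Cfsg.Agent.H13.G24Mult.Cover
import Cfsg.Agent.H13.SylMult.Mult
import Cfsg.Agent.H69.G2Three.Steinberg

/-!
The Schur multiplier of the Chevalley group of type G2 over four elements has order two.
-/

set_option autoImplicit false
set_option maxRecDepth 100000

namespace Cfsg.Agent.H13.G24Mult

open Cfsg Equiv Cfsg.Agent.H16 EnumData Cfsg.Agent.H36 Cfsg.Agent.H13.SylMult

theorem ctx_n : ctx.n = G24U.data.n := by decide +kernel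

theorem gens_len : ctx.gens.length = 6 := by decide +kernel

theorem gens_eq : allFrom (fun g => allFrom (fun x =>
    Nat.beq (G24U.data.act x g) (ctx.ap (getN ctx.gens g) x)) 416 0) 6 0 = true := by decide +kernel

/-- The generators on the cosets. -/
noncomputable def σG : Fin ctx.gens.length → Perm (Fin ctx.n) := fun c =>
  (Fin.castOrderIso ctx_n).toEquiv.symm.permCongr (G24U.valid.perm (c : ℕ))

theorem σG_rep (c : Fin ctx.gens.length) : ctx.Rep (σG c) (getN ctx.gens c) := fun x => by
  have hg : (c : ℕ) < G24U.data.ng := Nat.lt_of_lt_of_eq c.2 gens_len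
  have hx : (x : ℕ) < 416 := x.2
  have h := allFrom_spec (allFrom_spec gens_eq c (Nat.zero_le _)
    (Nat.lt_of_lt_of_eq c.2 (gens_len.trans (Nat.zero_add 6).symm))) x (Nat.zero_le _)
    (by omega)
  refine Eq.trans ?_ (Nat.eq_of_beq_eq_true h)
  show ((G24U.valid.perm (c : ℕ) (Fin.cast ctx_n x) : Fin G24U.data.n) : ℕ) = _
  rw [Valid.perm, dif_pos hg]
  rfl

theorem range_eq : Subgroup.closure (Set.range fun c => G24U.valid.perm ((c : Fin ctx.gens.length) : ℕ)) =
    (G24U.theModel.rho.range : Subgroup (Perm (Fin G24U.data.n))) := by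
  have h : (G24U.theModel.rho.range : Subgroup (Perm (Fin G24U.data.n))) =
      Subgroup.closure (Set.range fun g => G24U.valid.perm g) := by
    rw [MonoidHom.range_eq_map, ← G24U.theModel.gen_closure, MonoidHom.map_closure]
    congr 1
    ext p
    simp only [Set.mem_image, Set.mem_range]
    constructor
    · rintro ⟨_, ⟨g, rfl⟩, rfl⟩; exact ⟨g, (G24U.theModel.rho_gen g).symm⟩
    · rintro ⟨g, rfl⟩; exact ⟨_, ⟨g, rfl⟩, G24U.theModel.rho_gen g⟩
  rw [h]
  refine le_antisymm (Subgroup.closure_mono ?_) ((Subgroup.closure_le _).2 ?_)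
  · rintro _ ⟨c, rfl⟩
    exact ⟨(c : ℕ), rfl⟩
  · rintro _ ⟨g, rfl⟩
    by_cases hg : g < G24U.data.ng
    · exact Subgroup.subset_closure ⟨⟨g, Nat.lt_of_lt_of_eq hg gens_len.symm⟩, rfl⟩
    · show G24U.valid.perm g ∈ _
      rw [Valid.perm, dif_neg hg]
      exact one_mem _

/-- The presented group and the permutation group. -/
noncomputable def modelEquiv : G24U.Grp ≃* Subgroup.closure (Set.range σG) :=
  (MonoidHom.ofInjective G24Order.card_and_faithful.2).trans
    ((MulEquiv.subgroupCongr range_eq.symm).trans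
      (((Fin.castOrderIso ctx_n).toEquiv.symm.permCongrHom.subgroupMap _).trans
        (MulEquiv.subgroupCongr (by rw [MonoidHom.map_closure, ← Set.range_comp]; rfl))))

theorem card_closure : Nat.card (Subgroup.closure (Set.range σG)) = 251596800 := by
  rw [← Nat.card_congr modelEquiv.toEquiv, G24Order.card_and_faithful.1]

theorem card_ker_dvd_two (Δ : Type) [Group Δ] [Finite Δ]
    (τ : Δ →* Subgroup.closure (Set.range σG)) (hτ : Cfsg.IsStemExtension τ) : Nat.card τ.ker ∣ 2 := by
  obtain ⟨E2, F2, h2⟩ := groupFacts (R := perm2) (D := pc2) (C := cert2) σG σG_rep perm2_ok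
    (by decide +kernel) (show Nat.Prime 2 by norm_num) pc2_ok rows2_ok (by decide +kernel)
  obtain ⟨E3, F3, h3⟩ := groupFacts (R := perm3) (D := pc3) (C := cert3) σG σG_rep perm3_ok
    (by decide +kernel) (show Nat.Prime 3 by norm_num) pc3_ok rows3_ok (by decide +kernel)
  obtain ⟨E5, F5, h5⟩ := groupFacts (R := perm5) (D := pc5) (C := cert5) σG σG_rep perm5_ok
    (by decide +kernel) (show Nat.Prime 5 by norm_num) pc5_ok rows5_ok (by decide +kernel)
  have b2 := factorization_ker_le hτ (show Nat.Prime 2 by norm_num) pc2_ok rows2_ok combos2_ok h2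
    (factorization_eq (a := 12) (b := 61425) (by norm_num : Nat.Prime 2) (by rw [card_closure]; rfl)
      (show ¬ (2 : ℕ) ∣ 61425 by norm_num))
  have b3 := factorization_ker_le hτ (show Nat.Prime 3 by norm_num) pc3_ok rows3_ok combos3_ok h3
    (factorization_eq (a := 3) (b := 9318400) (by norm_num : Nat.Prime 3) (by rw [card_closure]; rfl)
      (show ¬ (3 : ℕ) ∣ 9318400 by norm_num))
  have b5 := factorization_ker_le hτ (show Nat.Prime 5 by norm_num) pc5_ok rows5_ok combos5_ok h5
    (factorization_eq (a := 2) (b := 10063872) (by norm_num : Nat.Prime 5) (by rw [card_closure]; rfl)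
      (show ¬ (5 : ℕ) ∣ 10063872 by norm_num))
  refine card_ker_dvd hτ (by norm_num) [2, 3, 5] (fun p hp => ?_) (fun p hp hn => ?_)
  · simp only [List.mem_cons, List.not_mem_nil, or_false] at hp
    rcases hp with rfl | rfl | rfl
    · rw [Nat.Prime.factorization_self Nat.prime_two]; exact b2
    · exact b3.trans (Nat.zero_le _)
    · exact b5.trans (Nat.zero_le _)
  · rw [card_closure]
    simp only [List.mem_cons, List.not_mem_nil, or_false, not_or] at hn
    by_contra hlt
    have hd : p ^ 2 ∣ 2 ^ 12 * (3 ^ 3 * (5 ^ 2 * (7 * 13))) := by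
      refine (pow_dvd_pow p (by omega : 2 ≤ (251596800 : ℕ).factorization p)).trans ?_
      norm_num
      exact Nat.ordProj_dvd 251596800 p
    have cop : ∀ q k, q.Prime → p ≠ q → Nat.Coprime (p ^ 2) (q ^ k) := fun q k hq hne =>
      Nat.Coprime.pow 2 k ((Nat.coprime_primes hp hq).2 hne)
    have h3 := (cop 5 2 (by norm_num) hn.2.2).dvd_of_dvd_mul_left
      ((cop 3 3 Nat.prime_three hn.2.1).dvd_of_dvd_mul_left
        ((cop 2 12 Nat.prime_two hn.1).dvd_of_dvd_mul_left hd))
    rcases (Nat.Prime.dvd_mul hp).1 ((dvd_pow_self p two_ne_zero).trans h3) with h | h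
    · rw [(Nat.prime_dvd_prime_iff_eq hp (by norm_num)).1 h] at h3; norm_num at h3
    · rw [(Nat.prime_dvd_prime_iff_eq hp (by norm_num)).1 h] at h3; norm_num at h3

theorem multiplier_model : Cfsg.HasCyclicSchurMultiplier G24U.Grp 2 := by
  obtain ⟨Γ, iG, iF, π, hπ, hne⟩ := exists_stem
  have hk : (modelEquiv.toMonoidHom.comp π).ker = π.ker := by
    ext x
    simp only [MonoidHom.mem_ker, MonoidHom.coe_comp, Function.comp_apply, MulEquiv.coe_toMonoidHom,
      MulEquiv.map_eq_one_iff]
  have hst : Cfsg.IsStemExtension (modelEquiv.toMonoidHom.comp π) :=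
    ⟨modelEquiv.surjective.comp hπ.1, hk ▸ hπ.2.1, hk ▸ hπ.2.2⟩
  have hcard : Nat.card (modelEquiv.toMonoidHom.comp π).ker = 2 := by
    rcases (Nat.dvd_prime Nat.prime_two).1 (card_ker_dvd_two Γ _ hst) with h | h
    · exact absurd (Subgroup.card_eq_one.1 h) (hk.symm ▸ hne)
    · exact h
  haveI : Fact (Nat.Prime 2) := ⟨Nat.prime_two⟩
  exact hasCyclic_of_bound modelEquiv (fun Δ _ _ τ hτ => card_ker_dvd_two Δ τ hτ) two_ne_zero
    ⟨Γ, iG, iF, _, hst, isCyclic_of_prime_card hcard, hcard⟩

/-- The presented group is the Chevalley group. -/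
noncomputable def chevEquiv {F : Type*} [Field F] [Fintype F] (hF : Fintype.card F = 4) :
    G24U.Grp ≃* ↥(Cfsg.Lie.chevG2.group F) :=
  (MulEquiv.ofBijective G24Iso.chevHom ((Nat.bijective_iff_injective_and_card _).mpr
      ⟨G24Iso.chevHom_injective, by rw [G24Order.card_and_faithful.1, G24Iso.card_chev]⟩)).trans
    (H69.G2Three.groupMapEquiv Cfsg.Lie.chevG2
      (FiniteField.ringEquivOfCardEq (F4.card_eq.trans hF.symm)))

theorem hasMultiplier {F : Type*} [Field F] [Fintype F] (hF : Fintype.card F = 4) :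
    Cfsg.HasCyclicSchurMultiplier ↥(Cfsg.Lie.chevG2.group F) 2 :=
  H82.HasSchurMultiplier.of_mulEquiv multiplier_model (chevEquiv hF)

end Cfsg.Agent.H13.G24Mult
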