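import Cfsg.Agent.H13.G24Mult.Data
import Cfsg.Agent.H13.SylMult.Split

/-! The program agrees with its factors, checked in pieces. -/

set_option autoImplicit false
set_option maxRecDepth 100000

namespace Cfsg.Agent.H13.G24Mult

open Cfsg.Agent.H16 Cfsg.Agent.H36 Cfsg.Agent.H13.SylMult

theorem slp_part0 : allFrom ctx.slpOk 80 0 = true := by decide +kernel

theorem slp_part1 : allFrom ctx.slpOk 80 80 = true := by decide +kernel

theorem slp_part2 : allFrom ctx.slpOk 80 160 = true := by decide +kernel

theorem slp_part3 : allFrom ctx.slpOk 80 240 = true := by decide +kernel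

theorem slp_part4 : allFrom ctx.slpOk 80 320 = true := by decide +kernel

theorem slp_part5 : allFrom ctx.slpOk 15 400 = true := by decide +kernel

theorem slp_all : ∀ k, k < ctx.ns → ctx.slpOk k = true :=
  (allFrom_extend (allFrom_extend (allFrom_extend (allFrom_extend (allFrom_extend (allFrom_extend allFrom_nil slp_part0) slp_part1) slp_part2) slp_part3) slp_part4) slp_part5)

end Cfsg.Agent.H13.G24Mult
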